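import Cfsg.Agent.Lib.Classical.SL2.Order4
import Cfsg.Agent.Lib.Classical.SL2.A5Sub

/-!
Dickson's theorem on generation of `SL₂(F)` by two unitriangular matrices.
-/

set_option autoImplicit false
set_option linter.unusedSectionVars false
set_option linter.unusedSimpArgs false
set_option linter.style.haveILetI false

open scoped MatrixGroups Quaternion
open Matrix OnePoint MulAction

namespace Cfsg.Agent.Lib.Classical.SL2.GenUL

open Cfsg.Agent.Lib.Classical.SL2.Moebius Cfsg.Agent.Lib.Classical.SL2.Rational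
open Cfsg.Agent.Lib.Classical.SL2.Klein Cfsg.Agent.Lib.Classical.SL2.SubfieldCase
open Cfsg.Agent.Lib.Classical.SL2.Dickson Cfsg.Agent.Lib.Classical.SL2.Precise
open Cfsg.Agent.Lib.Classical.SL2.Tori Cfsg.Agent.Lib.Classical.SL2.SubLat
open Cfsg.Agent.Lib.Classical.SL2.Coatom Cfsg.Agent.Lib.Classical.SL2.SubMax
open Cfsg.Agent.Lib.Classical.SL2.EvenList Cfsg.Agent.Lib.Classical.SL2.Quat
open Cfsg.Agent.Lib.Classical.SL2.V4Abs Cfsg.Agent.Lib.Classical.SL2.QuatStd
open Cfsg.Agent.Lib.Classical.SL2.Klein4 Cfsg.Agent.Lib.Classical.SL2.A4S4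
open Cfsg.Agent.Lib.Classical.SL2.A5Sub Cfsg.Agent.Lib.Classical.SL2.MaxList
open Cfsg.Agent.Lib.Classical.SL2.Order4 Cfsg.Agent.Lib.Classical.SL2.Icosa
open Cfsg.Agent.Lib.Classical.SL2.MaxAbs
open Cfsg.Agent.Lib.Classical

local notation "PGL2" => ProjGenLinGroup (Fin 2)
local notation "PSL2" => ProjectiveSpecialLinearGroup (Fin 2)

variable {F : Type*} [Field F] [Fintype F] [DecidableEq F]

/-- The lower unitriangular matrix. -/
def Lm : SL(2, F) := ⟨!![1, 0; 1, 1], by simp [Matrix.det_fin_two]⟩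

/-- The inverse of the lower unitriangular matrix. -/
def Lm' : SL(2, F) := ⟨!![1, 0; -1, 1], by simp [Matrix.det_fin_two]⟩

/-- The upper unitriangular matrix. -/
def Um (l : F) : SL(2, F) := ⟨!![1, l; 0, 1], by simp [Matrix.det_fin_two]⟩

lemma gen_set_eq (l : F) : {g : SL(2, F) | (g : Matrix (Fin 2) (Fin 2) F) = !![1, 0; 1, 1] ∨
    (g : Matrix (Fin 2) (Fin 2) F) = !![1, l; 0, 1]} = {Lm, Um l} := by
  ext g
  simp only [Set.mem_ofPred_eq, Set.mem_insert_iff, Set.mem_singleton_iff]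
  constructor
  · rintro (h | h)
    · left; exact Subtype.ext h
    · right; exact Subtype.ext h
  · rintro (rfl | rfl)
    · left; rfl
    · right; rfl

lemma Lm_mul_Lm' : (Lm : SL(2, F)) * Lm' = 1 := by
  apply Subtype.ext
  ext i j
  change (Lm * Lm' : SL(2, F)) i j = _
  rw [mul_entry]
  fin_cases i <;> fin_cases j <;> simp [Lm, Lm']

/-- The subgroup generated. -/
def gS (l : F) : Subgroup (SL(2, F)) := Subgroup.closure {Lm, Um l}

/-- Its image in `PGL₂`. -/
noncomputable def gH (l : F) : Subgroup (PGL2 F) := (gS l).map pS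

lemma Lm_mem (l : F) : (Lm : SL(2, F)) ∈ gS l := Subgroup.subset_closure (by simp)
lemma Um_mem (l : F) : Um l ∈ gS l := Subgroup.subset_closure (by simp)

lemma gH_le_Lp (l : F) : gH l ≤ Lp F := by
  rintro _ ⟨g, -, rfl⟩
  exact ⟨QuotientGroup.mk g, rfl⟩

lemma pS_Lm : pS (Lm : SL(2, F)) = ProjGenLinGroup.mk (lG 1) := by
  rw [pS_apply]
  congr 1
  apply gl_ext <;> rfl

lemma pS_Um (l : F) : pS (Um l) = ProjGenLinGroup.mk (uG l) := by
  rw [pS_apply]
  congr 1
  apply gl_ext <;> rfl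

lemma Lm_H (l : F) : ProjGenLinGroup.mk (lG 1) ∈ gH l := ⟨Lm, Lm_mem l, pS_Lm⟩
lemma Um_H (l : F) : ProjGenLinGroup.mk (uG l) ∈ gH l := ⟨Um l, Um_mem l, pS_Um l⟩

/-- Squared trace over determinant. -/
noncomputable def tau (g : GL (Fin 2) F) : F :=
  (Matrix.trace (g : Matrix (Fin 2) (Fin 2) F)) ^ 2 / (g : Matrix (Fin 2) (Fin 2) F).det

lemma tau_mul_scalar (g : GL (Fin 2) F) (u : Fˣ) :
    tau (g * GeneralLinearGroup.scalar (Fin 2) u) = tau g := by
  unfold tau
  have h1 : ((g * GeneralLinearGroup.scalar (Fin 2) u : GL (Fin 2) F) : Matrix (Fin 2) (Fin 2) F) =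
      (u : F) • (g : Matrix (Fin 2) (Fin 2) F) := by
    ext i j
    rw [mul_scalar_apply]
    simp [mul_comm]
  have hd := g.det_ne_zero
  have hu := u.ne_zero
  rw [h1, Matrix.trace_smul, Matrix.det_smul]
  simp only [Fintype.card_fin, smul_eq_mul]
  field_simp

lemma tau_conj (c g : GL (Fin 2) F) : tau (c * g * c⁻¹) = tau g := by
  unfold tau
  have h1 : ((c * g * c⁻¹ : GL (Fin 2) F) : Matrix (Fin 2) (Fin 2) F) =
      (c : Matrix (Fin 2) (Fin 2) F) * (g : Matrix (Fin 2) (Fin 2) F) *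
        ((c⁻¹ : GL (Fin 2) F) : Matrix (Fin 2) (Fin 2) F) := rfl
  rw [h1, Matrix.trace_units_conj, Matrix.det_units_conj]

lemma tau_map (F₀ : Subfield F) (g₀ : GL (Fin 2) F₀) :
    tau (GeneralLinearGroup.map (algebraMap F₀ F) g₀) ∈ F₀ := by
  unfold tau
  rw [Matrix.trace_fin_two, Matrix.det_fin_two]
  simp only [map_entry]
  apply F₀.div_mem
  · exact F₀.pow_mem (F₀.add_mem (SetLike.coe_mem _) (SetLike.coe_mem _)) _
  · exact F₀.sub_mem (F₀.mul_mem (SetLike.coe_mem _) (SetLike.coe_mem _))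
      (F₀.mul_mem (SetLike.coe_mem _) (SetLike.coe_mem _))

lemma tau_mem (F₀ : Subfield F) (C : PGL2 F) (g : GL (Fin 2) F)
    (h : ProjGenLinGroup.mk g ∈ ((φ₀ F₀).range).map (MulAut.conj C).toMonoidHom) : tau g ∈ F₀ := by
  obtain ⟨x, ⟨y, rfl⟩, hx⟩ := h
  induction y using ProjGenLinGroup.induction_on with | mk g₀ =>
  induction C using ProjGenLinGroup.induction_on with | mk c =>
  have h1 : ProjGenLinGroup.mk (c * GeneralLinearGroup.map (algebraMap F₀ F) g₀ * c⁻¹) =
      ProjGenLinGroup.mk g := by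
    rw [← hx]
    simp only [map_mul, map_inv]
    rfl
  obtain ⟨u, hu⟩ := ProjGenLinGroup.mk_eq_mk_iff.1 h1
  rw [← hu, tau_mul_scalar, tau_conj]
  exact tau_map F₀ g₀

lemma tau_toGL (g : SL(2, F)) : tau (SpecialLinearGroup.toGL g) = (g 0 0 + g 1 1) ^ 2 := by
  unfold tau
  have h1 : ((SpecialLinearGroup.toGL g : GL (Fin 2) F) : Matrix (Fin 2) (Fin 2) F) =
      (g : Matrix (Fin 2) (Fin 2) F) := rfl
  rw [h1, g.2, div_one, Matrix.trace_fin_two]

lemma tr_UL (l : F) : (Um l * Lm : SL(2, F)) 0 0 + (Um l * Lm : SL(2, F)) 1 1 = 2 + l := by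
  rw [mul_entry, mul_entry]
  simp [Um, Lm]
  ring

lemma tr_UL' (l : F) : (Um l * Lm' : SL(2, F)) 0 0 + (Um l * Lm' : SL(2, F)) 1 1 = 2 - l := by
  rw [mul_entry, mul_entry]
  simp [Um, Lm']
  ring

lemma Lm'_mem (l : F) : (Lm' : SL(2, F)) ∈ gS l := by
  have h : (Lm' : SL(2, F)) = Lm⁻¹ := (inv_eq_of_mul_eq_one_right Lm_mul_Lm').symm
  rw [h]
  exact (gS l).inv_mem (Lm_mem l)

lemma lam_mem_of_conj (h2 : (2 : F) ≠ 0) {l : F} {F₀ : Subfield F} {C : PGL2 F}
    (h : gH l ≤ ((φ₀ F₀).range).map (MulAut.conj C).toMonoidHom) : l ∈ F₀ := by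
  have h1 : (2 + l) ^ 2 ∈ F₀ := by
    rw [← tr_UL, ← tau_toGL]
    apply tau_mem F₀ C
    exact h ⟨_, (gS l).mul_mem (Um_mem l) (Lm_mem l), rfl⟩
  have h3 : (2 - l) ^ 2 ∈ F₀ := by
    rw [← tr_UL', ← tau_toGL]
    apply tau_mem F₀ C
    exact h ⟨_, (gS l).mul_mem (Um_mem l) (Lm'_mem l), rfl⟩
  have h4 : (8 : F) ∈ F₀ := by
    have : (8 : F) = ((8 : ℕ) : F) := by norm_num
    rw [this]
    exact natCast_mem F₀ 8
  have h5 : (8 : F) ≠ 0 := by
    have : (8 : F) = 2 * 2 * 2 := by norm_num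
    rw [this]
    exact mul_ne_zero (mul_ne_zero h2 h2) h2
  have h6 : l = 8⁻¹ * ((2 + l) ^ 2 - (2 - l) ^ 2) := by
    field_simp
    ring
  rw [h6]
  exact F₀.mul_mem (F₀.inv_mem h4) (F₀.sub_mem h1 h3)

lemma odd_of_two_ne (h2 : (2 : F) ≠ 0) : Odd (Fintype.card F) := by
  rw [Nat.odd_iff]
  by_contra h
  have h3 : ringChar F = 2 := FiniteField.even_card_iff_char_two.2 (by omega)
  apply h2
  have h4 := ringChar.Nat.cast_ringChar (R := F)
  rw [h3] at h4
  exact_mod_cast h4

/-- The trace of an element of small order. -/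
lemma trace_cases_SL (s : AB F) (g : SL(2, F))
    (hg : pS g = 1 ∨ pS g ^ 2 = 1 ∨ pS g ^ 3 = 1 ∨ pS g ^ 5 = 1) :
    ((g 0 0 + g 1 1 = 2 ∨ g 0 0 + g 1 1 = -2) ∨ g 0 0 + g 1 1 = 0 ∨ (g 0 0 + g 1 1) ^ 2 = 1 ∨
      ((g 0 0 + g 1 1) ^ 2 = (g 0 0 + g 1 1) + 1 ∨ (g 0 0 + g 1 1) ^ 2 = 1 - (g 0 0 + g 1 1))) := by
  obtain ⟨q, hq⟩ := psi_surjective s (g : Matrix (Fin 2) (Fin 2) F)
  have hn : Quaternion.normSq q = 1 := by
    rw [← psi_det s, hq]
    exact g.2
  have hq0 : Quaternion.normSq q ≠ 0 := by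
    rw [hn]
    exact one_ne_zero
  have hP : pQ s q hq0 = pS g := by
    rw [pQ, pS_apply]
    congr 1
    apply Units.ext
    exact hq
  have h00 : g 0 0 + g 1 1 = 2 * q.re := by
    have h1 : g 0 0 = psi s q 0 0 := by rw [hq]
    have h3 : g 1 1 = psi s q 1 1 := by rw [hq]
    rw [h1, h3, psi_00, psi_11]
    ring
  rw [h00]
  rw [← hP] at hg
  exact trace_cases s hq0 hn hg

/-- The equation for the parameter when the group has exponents as in `A₅`. -/
lemma lam_of_A5 (h2 : (2 : F) ≠ 0) (h3 : (3 : F) = 0) {l : F} (hl : l ≠ 0)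
    (hexp : ∀ x ∈ gH l, x = 1 ∨ x ^ 2 = 1 ∨ x ^ 3 = 1 ∨ x ^ 5 = 1) (s : AB F) :
    l = 1 ∨ l = -1 ∨ l ^ 2 = -1 := by
  have h1 := trace_cases_SL s (Um l * Lm : SL(2, F)) (hexp _ ⟨_, (gS l).mul_mem (Um_mem l) (Lm_mem l), rfl⟩)
  have h4 := trace_cases_SL s (Um l * Lm' : SL(2, F)) (hexp _ ⟨_, (gS l).mul_mem (Um_mem l) (Lm'_mem l), rfl⟩)
  rw [tr_UL] at h1
  rw [tr_UL'] at h4
  have hone : ∀ x : F, x ^ 2 = 1 → x = 1 ∨ x = -1 := by
    intro x hx
    have : (x - 1) * (x + 1) = 0 := by linear_combination hx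
    rcases mul_eq_zero.1 this with h | h
    · left; exact sub_eq_zero.1 h
    · right; exact eq_neg_of_add_eq_zero_left h
  have key1 : (l = 1 ∨ l = -1) ∨ (l ^ 2 = -1 ∨ l ^ 2 = l + 1) := by
    rcases h1 with (h | h) | h | h | (h | h)
    · exfalso; apply hl; linear_combination h
    · left; right; linear_combination h - h3
    · left; left; linear_combination h - h3 
    · rcases hone _ h with h5 | h5
      · left; right; linear_combination h5
      · exfalso; apply hl; linear_combination h5 - h3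
    · right; left; linear_combination h - l * h3
    · right; right; linear_combination h - (2 * l + 2) * h3
  have key2 : (l = 1 ∨ l = -1) ∨ (l ^ 2 = -1 ∨ l ^ 2 = 1 - l) := by
    rcases h4 with (h | h) | h | h | (h | h)
    · exfalso; apply hl; linear_combination -h
    · left; left; linear_combination -h + h3
    · left; right; linear_combination -h + h3
    · rcases hone _ h with h5 | h5
      · left; left; linear_combination -h5
      · exfalso; apply hl; linear_combination -h5 + h3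
    · right; left; linear_combination h + l * h3
    · right; right; linear_combination h + (2 * l - 2) * h3
  rcases key1 with h | h | h
  · rcases h with h | h
    · exact Or.inl h
    · exact Or.inr (Or.inl h)
  · exact Or.inr (Or.inr h)
  · rcases key2 with h' | h' | h'
    · rcases h' with h' | h'
      · exact Or.inl h'
      · exact Or.inr (Or.inl h')
    · exact Or.inr (Or.inr h')
    · exfalso
      apply hl
      have : 2 * l = 0 := by linear_combination h' - h
      exact (mul_eq_zero.1 this).resolve_left h2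

/-- A generator with square `-1` in characteristic three: the field has nine elements. -/
lemma card_nine (h2 : (2 : F) ≠ 0) (h3 : (3 : F) = 0) {l : F} (hl : l ^ 2 = -1)
    (hgen : Subfield.closure ({l} : Set F) = ⊤) : Fintype.card F = 9 := by
  haveI hc3 : CharP F 3 := by
    obtain ⟨p, hp⟩ := CharP.exists F
    have hpp := CharP.char_is_prime F p
    have h4 : p ∣ 3 := (CharP.cast_eq_zero_iff F p 3).1 (by exact_mod_cast h3)
    have h5 : p = 3 := (Nat.prime_dvd_prime_iff_eq hpp Nat.prime_three).1 h4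
    rwa [h5] at hp
  haveI hf3 : Fact (Nat.Prime 3) := ⟨Nat.prime_three⟩
  haveI : ExpChar F 3 := ExpChar.prime Nat.prime_three
  have hl9 : l ^ 9 = l := by
    have : l ^ 9 = l * (l ^ 2) ^ 4 := by ring
    rw [this, hl]
    ring
  have hK : ∀ x : F, x ^ 9 = x := by
    have hmem : l ∈ RingHom.eqLocusField (iterateFrobenius F 3 2) (RingHom.id F) := by
      change iterateFrobenius F 3 2 l = l
      rw [iterateFrobenius_def]
      norm_num
      exact hl9
    have hle : (⊤ : Subfield F) ≤ RingHom.eqLocusField (iterateFrobenius F 3 2) (RingHom.id F) := by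
      rw [← hgen, Subfield.closure_le]
      intro x hx
      rw [Set.mem_singleton_iff.1 hx]
      exact hmem
    intro x
    have h4 : x ∈ RingHom.eqLocusField (iterateFrobenius F 3 2) (RingHom.id F) :=
      hle (Subfield.mem_top x)
    have h5 : iterateFrobenius F 3 2 x = x := h4
    rw [iterateFrobenius_def] at h5
    norm_num at h5
    exact h5
  obtain ⟨g, hg⟩ := IsCyclic.exists_generator (α := Fˣ)
  have hord : orderOf g = Nat.card Fˣ := orderOf_eq_card_of_forall_mem_zpowers hg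
  have hg8 : g ^ 8 = 1 := by
    apply Units.ext
    have h4 := hK (g : F)
    have h5 : (g : F) ^ 8 * g = 1 * g := by
      rw [one_mul, ← pow_succ]
      exact h4
    simpa using mul_right_cancel₀ g.ne_zero h5
  have hd : Nat.card Fˣ ∣ 8 := by
    rw [← hord]
    exact orderOf_dvd_of_pow_eq_one hg8
  rw [Nat.card_eq_fintype_card, Fintype.card_units] at hd
  have hle8 := Nat.le_of_dvd (by norm_num) hd
  obtain ⟨n, -, hn⟩ := FiniteField.card F 3
  have hn2 : (n : ℕ) < 3 := by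
    by_contra hlt
    have h5 : 3 ^ 3 ≤ 3 ^ (n : ℕ) := Nat.pow_le_pow_right (by norm_num) (by omega)
    omega
  have hn0 := n.pos
  have hn12 : (n : ℕ) = 1 ∨ (n : ℕ) = 2 := by omega
  rcases hn12 with h | h
  · exfalso
    rw [h] at hn
    have h5 := FiniteField.pow_card l
    rw [hn] at h5
    have h6 : l * (l ^ 2 - 1) = 0 := by linear_combination h5
    rw [hl] at h6
    have hl0 : l ≠ 0 := by
      rintro rfl
      have : (1 : F) = 0 := by linear_combination hl
      exact one_ne_zero this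
    rcases mul_eq_zero.1 h6 with h7 | h7
    · exact hl0 h7
    · apply h2
      linear_combination -h7
  · rw [hn, h]
    norm_num

section Hex

variable (s : AB F) (h3 : (3 : F) = 0) {l : F} (hl : l ^ 2 = -1)

/-- The conjugating matrix. -/
noncomputable def Cm (l : F) : GL (Fin 2) F := glOf 1 (-1) l (1 - l) (by
  have : (1 : F) * (1 - l) - (-1) * l = 1 := by ring
  rw [this]
  exact one_ne_zero)

@[simp] lemma Cm_00 (l : F) : Cm l 0 0 = 1 := rfl
@[simp] lemma Cm_01 (l : F) : Cm l 0 1 = -1 := rfl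
@[simp] lemma Cm_10 (l : F) : Cm l 1 0 = l := rfl
@[simp] lemma Cm_11 (l : F) : Cm l 1 1 = 1 - l := rfl

lemma glQ_00 (q : ℍ[F]) (hq : Quaternion.normSq q ≠ 0) :
    glQ s q hq 0 0 = q.re + q.imJ * s.a + q.imK * s.b := psi_00 s q
lemma glQ_01 (q : ℍ[F]) (hq : Quaternion.normSq q ≠ 0) :
    glQ s q hq 0 1 = q.imI + q.imJ * s.b - q.imK * s.a := psi_01 s q
lemma glQ_10 (q : ℍ[F]) (hq : Quaternion.normSq q ≠ 0) :
    glQ s q hq 1 0 = - q.imI + q.imJ * s.b - q.imK * s.a := psi_10 s q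
lemma glQ_11 (q : ℍ[F]) (hq : Quaternion.normSq q ≠ 0) :
    glQ s q hq 1 1 = q.re - q.imJ * s.a - q.imK * s.b := psi_11 s q

lemma hex_L (ha : s.a = 1) (hb : s.b = 1) (h3 : (3 : F) = 0) :
    (MulAut.conj (ProjGenLinGroup.mk (Cm l))).toMonoidHom (ω₀ s) = pS (Lm : SL(2, F)) := by
  rw [pS_Lm]
  change ProjGenLinGroup.mk (Cm l) * ω₀ s * (ProjGenLinGroup.mk (Cm l))⁻¹ = _
  rw [mul_inv_eq_iff_eq_mul]
  change ProjGenLinGroup.mk (Cm l) * ProjGenLinGroup.mk (glQ s qW (n_qW s)) = _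
  rw [← map_mul, ← map_mul, ProjGenLinGroup.mk_eq_mk_iff]
  refine ⟨-1, ?_⟩
  apply gl_ext <;> rw [mul_scalar_apply] <;> simp only [gl_mul_apply, glQ_00, glQ_01, glQ_10, glQ_11, ha, hb,
    qW, qq_re, qq_imI, qq_imJ, qq_imK, Cm_00, Cm_01, Cm_10, Cm_11, lG_00, lG_01, lG_10, lG_11,
    Units.val_neg, Units.val_one]
  · linear_combination -h3
  · linear_combination -h3
  · linear_combination -l * h3
  · linear_combination (1 - l) * h3

lemma hex_U (ha : s.a = 1) (hb : s.b = 1) (h3 : (3 : F) = 0) (hl : l ^ 2 = -1)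
    (hφ : (l - 1) * (l - 1) = (l - 1) + 1) :
    (MulAut.conj (ProjGenLinGroup.mk (Cm l))).toMonoidHom (ω₀ s * x₀ s * e₁ s hφ) = pS (Um l) := by
  rw [pS_Um]
  change ProjGenLinGroup.mk (Cm l) * (ω₀ s * x₀ s * e₁ s hφ) * (ProjGenLinGroup.mk (Cm l))⁻¹ = _
  rw [mul_inv_eq_iff_eq_mul]
  change ProjGenLinGroup.mk (Cm l) * (ProjGenLinGroup.mk (glQ s qW (n_qW s)) *
    ProjGenLinGroup.mk (glQ s qI n_qI) * ProjGenLinGroup.mk (glQ s (qq (l - 1) (l - 1 - 1) 1 0) _)) = _
  rw [← map_mul, ← map_mul, ← map_mul, ← map_mul, ProjGenLinGroup.mk_eq_mk_iff]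
  refine ⟨1, ?_⟩
  apply gl_ext <;> rw [mul_scalar_apply] <;> simp only [gl_mul_apply, glQ_00, glQ_01, glQ_10, glQ_11,
    ha, hb, qW, qI, qq_re, qq_imI, qq_imJ, qq_imK, Cm_00, Cm_01, Cm_10, Cm_11, uG_00, uG_01, uG_10,
    uG_11, Units.val_one]
  · linear_combination -hl - (-2 + 2 * l) * h3
  · linear_combination hl - l * h3
  · linear_combination -6 * hl - (-1 - 3 * l) * h3
  · linear_combination -2 * hl + l * h3

/-- In the exceptional case the group sits in a conjugate of the icosahedral group. -/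
lemma exists_H_le (h2 : (2 : F) ≠ 0) (h3 : (3 : F) = 0) {l : F} (hl : l ^ 2 = -1) :
    ∃ (s : AB F) (φ : F) (hφ : φ * φ = φ + 1) (C : PGL2 F),
      gH l ≤ (I₀ s hφ).map (MulAut.conj C).toMonoidHom := by
  let s : AB F := ⟨1, 1, by linear_combination h3, h2⟩
  have hφ : (l - 1) * (l - 1) = (l - 1) + 1 := by linear_combination hl - h3 * l
  refine ⟨s, l - 1, hφ, ProjGenLinGroup.mk (Cm l), ?_⟩
  rw [gH, gS, MonoidHom.map_closure, Subgroup.closure_le]
  rintro _ ⟨g, hg, rfl⟩
  rcases hg with rfl | hg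
  · exact ⟨ω₀ s, ω₀_mem_I₀ s hφ, hex_L s rfl rfl h3⟩
  · rw [Set.mem_singleton_iff.1 hg]
    exact ⟨_, (I₀ s hφ).mul_mem ((I₀ s hφ).mul_mem (ω₀_mem_I₀ s hφ) (x₀_mem_I₀ s hφ))
      (e₁_mem_I₀ s hφ), hex_U s rfl rfl h3 hl hφ⟩

end Hex

/-- The group generated is the whole of `PSL₂` or an exceptional icosahedral group. -/
lemma cases_H (h2 : (2 : F) ≠ 0) {l : F} (hl : l ≠ 0) (hgen : Subfield.closure ({l} : Set F) = ⊤) :
    gH l = Lp F ∨ ((3 : F) = 0 ∧ Nonempty (gH l ≃* alternatingGroup (Fin 5))) := by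
  classical
  let E := AlgebraicClosure F
  obtain ⟨p, hp⟩ := CharP.exists F
  haveI hpp : Fact p.Prime := ⟨CharP.char_is_prime F p⟩
  haveI : CharP E p := charP_of_injective_algebraMap (algebraMap F E).injective p
  have hu : Uni E (ProjGenLinGroup.mk (uG l)) (∞ : OnePoint E) := uni_uG hl
  have hL : Uni E (ProjGenLinGroup.mk (lG (1 : F))) ((0 : E) : OnePoint E) := uni_lG one_ne_zero
  rcases precise_pgl (E := E) (p := p) (gH l) with ⟨ω, hω⟩ | ⟨a, b, hab, -, hf⟩ | ⟨hnu, -⟩ |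
    ⟨hp3, he⟩ | ⟨C, F₀, -, h⟩
  · exfalso
    have h1 := hu.2 _ (hω _ (Um_H l))
    have h3 := hL.2 _ (hω _ (Lm_H l))
    rw [h1] at h3
    exact OnePoint.infty_ne_coe _ h3
  · exfalso
    rcases hf _ (Um_H l) with ⟨h1, h3⟩ | ⟨h1, h3⟩
    · exact hab ((hu.2 _ h1).trans (hu.2 _ h3).symm)
    · have h5 : uG l * uG l = uG (2 * l) := by
        apply gl_ext <;> simp only [gl_mul_apply, uG_00, uG_01, uG_10, uG_11] <;> ring
      have hu2 : Uni E (ProjGenLinGroup.mk (uG (2 * l))) (∞ : OnePoint E) :=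
        uni_uG (mul_ne_zero h2 hl)
      have h4 : toE E (ProjGenLinGroup.mk (uG (2 * l))) • a = a := by
        rw [← h5, map_mul, map_mul, mul_smul, h1, h3]
      have ha := hu2.2 a h4
      rw [ha, hu.1] at h1
      exact hab (ha.trans h1)
  · exfalso
    refine hnu _ (Um_H l) ?_ _ hu
    intro h1
    have h3 := hu.2 ((0 : E) : OnePoint E) (by rw [h1, map_one, one_smul])
    exact OnePoint.coe_ne_infty _ h3
  · right
    refine ⟨?_, he⟩
    subst hp3
    exact_mod_cast CharP.cast_eq_zero F 3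
  · left
    have hle : gH l ≤ ((φ₀ F₀).range).map (MulAut.conj C).toMonoidHom := by
      rcases h with h | h
      · rw [h]
      · rw [h]
        exact Subgroup.map_mono (φ₁_le_φ₀ F₀)
    have hlF := lam_mem_of_conj h2 hle
    have htop : F₀ = ⊤ := by
      rw [eq_top_iff, ← hgen, Subfield.closure_le]
      intro x hx
      rw [Set.mem_singleton_iff.1 hx]
      exact hlF
    exact eq_Lp_of_top (gH_le_Lp l) htop h

lemma neg_one_mem (h2 : (2 : F) ≠ 0) (S : Subgroup (SL(2, F))) (h : 2 ∣ Nat.card (S.map pS)) :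
    (-1 : SL(2, F)) ∈ S := by
  haveI : Fact (Nat.Prime 2) := ⟨Nat.prime_two⟩
  obtain ⟨x, hx⟩ := exists_prime_orderOf_dvd_card' 2 h
  obtain ⟨g, hg, hgx⟩ := x.2
  have hx1 : (x : PGL2 F) ≠ 1 := by
    intro h1
    have h3 : x = 1 := Subtype.ext h1
    rw [h3, orderOf_one] at hx
    omega
  have hx2 : (x : PGL2 F) ^ 2 = 1 := by
    have h3 : x ^ 2 = 1 := by
      have h4 := pow_orderOf_eq_one x
      rwa [hx] at h4
    exact_mod_cast congrArg Subtype.val h3
  have h3 : pS (g * g) = 1 := by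
    rw [map_mul]
    change pS g * pS g = 1
    have h4 : pS g = x := hgx
    rw [h4, ← pow_two, hx2]
  rcases (pS_eq_one_iff h2).1 h3 with h4 | h4
  · exfalso
    apply hx1
    have h5 : pS g = x := hgx
    rw [← h5]
    exact (pS_eq_one_iff h2).2 (eq_or_neg_of_sq h2 h4)
  · rw [← h4]
    exact S.mul_mem hg hg

lemma eq_top_of_map (h2 : (2 : F) ≠ 0) (S : Subgroup (SL(2, F))) (hS : S.map pS = Lp F) : S = ⊤ := by
  have hodd := odd_of_two_ne h2
  have hq1 := one_lt_card (F := F)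
  have hdvd : 2 ∣ Nat.card (S.map pS) := by
    rw [hS, card_Lp]
    have h3 := card_psl (F := F)
    rw [gcd_odd hodd] at h3
    obtain ⟨k, hk⟩ := hodd
    rw [hk] at h3
    have h4 : 2 * k + 1 - 1 = 2 * k := by omega
    have h5 : 2 * k + 1 + 1 = 2 * (k + 1) := by omega
    rw [h4, h5] at h3
    have h6 : Nat.card (PSL2 F) * 2 = 2 * ((2 * k + 1) * (k * (2 * (k + 1)))) := by
      rw [h3]
      ring
    have h7 : Nat.card (PSL2 F) = (2 * k + 1) * (k * (2 * (k + 1))) := by omega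
    rw [h7]
    exact ⟨(2 * k + 1) * (k * (k + 1)), by ring⟩
  have hneg := neg_one_mem h2 S hdvd
  rw [eq_top_iff]
  intro g _
  have h3 : pS g ∈ S.map pS := by
    rw [hS]
    exact ⟨QuotientGroup.mk g, rfl⟩
  obtain ⟨s, hs, hsg⟩ := h3
  have h4 : pS (s⁻¹ * g) = 1 := by
    rw [map_mul, map_inv]
    change (pS s)⁻¹ * pS g = 1
    have h5 : pS s = pS g := hsg
    rw [h5, inv_mul_cancel]
  rcases (pS_eq_one_iff h2).1 h4 with h5 | h5
  · rw [inv_mul_eq_one] at h5
    rwa [← h5]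
  · have h6 : g = s * (-1) := by
      rw [← h5, mul_inv_cancel_left]
    rw [h6]
    exact S.mul_mem hs hneg

lemma card_of_neg_one (h2 : (2 : F) ≠ 0) (S : Subgroup (SL(2, F))) (hneg : (-1 : SL(2, F)) ∈ S) :
    Nat.card S = 2 * Nat.card (S.map pS) := by
  have hr : (pS.comp S.subtype).range = S.map pS := by
    rw [MonoidHom.range_comp, Subgroup.range_subtype]
  have h1 := (pS.comp S.subtype).ker.card_mul_index
  rw [Subgroup.index_ker, hr] at h1
  have h3 : Nat.card (pS.comp S.subtype).ker = 2 := by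
    rw [Nat.card_eq_two_iff]
    refine ⟨⟨⟨1, S.one_mem⟩, by simp [MonoidHom.mem_ker]⟩, ⟨⟨-1, hneg⟩, ?_⟩, ?_, ?_⟩
    · rw [MonoidHom.mem_ker]
      exact (pS_eq_one_iff h2).2 (Or.inr rfl)
    · intro h
      have h4 : (1 : SL(2, F)) = -1 := by
        have := congrArg (fun x : (pS.comp S.subtype).ker => ((x : S) : SL(2, F))) h
        exact this
      exact neg_one_ne_one h2 h4.symm
    · ext x
      simp only [Set.mem_univ, Set.mem_insert_iff, Set.mem_singleton_iff, iff_true]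
      have h4 : pS ((x : S) : SL(2, F)) = 1 := by
        have := x.2
        rwa [MonoidHom.mem_ker] at this
      rcases (pS_eq_one_iff h2).1 h4 with h5 | h5
      · left
        exact Subtype.ext (Subtype.ext h5)
      · right
        exact Subtype.ext (Subtype.ext h5)
  rw [h3] at h1
  exact h1.symm

/-- The statement. -/
theorem main (h2 : (2 : F) ≠ 0) (l : F) (hl : l ≠ 0) (hgen : Subfield.closure ({l} : Set F) = ⊤) :
    (gS l = ⊤ ∧ ¬ (Fintype.card F = 9 ∧ l ^ 2 = -1)) ∨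
      (Fintype.card F = 9 ∧ l ^ 2 = -1 ∧ Nat.card (gS l) = 120) := by
  classical
  have hP := card_psl (F := F)
  have hodd := odd_of_two_ne h2
  rw [gcd_odd hodd] at hP
  by_cases hex : Fintype.card F = 9 ∧ l ^ 2 = -1
  · right
    refine ⟨hex.1, hex.2, ?_⟩
    have h3 : (3 : F) = 0 := by
      have h4 := FiniteField.cast_card_eq_zero F
      rw [hex.1] at h4
      have h5 : (3 : F) * 3 = 0 := by
        have : (3 : F) * 3 = ((9 : ℕ) : F) := by norm_num
        rw [this, h4]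
      simpa using h5
    obtain ⟨s, φ, hφ, C, hle⟩ := exists_H_le h2 h3 hex.2
    have hc60 : Nat.card (gH l) ≤ 60 := by
      have h4 := Subgroup.card_le_of_le hle
      rwa [card_map_conj', card_I₀] at h4
    rcases cases_H h2 hl hgen with h | ⟨-, ⟨e⟩⟩
    · exfalso
      rw [h, card_Lp] at hc60
      rw [hex.1] at hP
      have h9 : 9 * ((9 - 1) * (9 + 1)) = 720 := by norm_num
      rw [h9] at hP
      omega
    · have h60 : Nat.card (gH l) = 60 := by rw [Nat.card_congr e.toEquiv, card_A5]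
      rw [card_of_neg_one h2 _ (neg_one_mem h2 _ (by
        change 2 ∣ Nat.card (gH l)
        rw [h60]
        norm_num))]
      change 2 * Nat.card (gH l) = 120
      rw [h60]
  · left
    refine ⟨?_, hex⟩
    rcases cases_H h2 hl hgen with h | ⟨h3, ⟨e⟩⟩
    · exact eq_top_of_map h2 _ h
    · exfalso
      have hexp : ∀ x ∈ gH l, x = 1 ∨ x ^ 2 = 1 ∨ x ^ 3 = 1 ∨ x ^ 5 = 1 := by
        intro x hx
        have h := A5_pow (e ⟨x, hx⟩)
        have key : ∀ n : ℕ, (e ⟨x, hx⟩) ^ n = 1 → x ^ n = 1 := by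
          intro n hn
          rw [← map_pow] at hn
          have h6 := (map_eq_one_iff e e.injective).1 hn
          have h7 := congrArg Subtype.val h6
          rwa [Subgroup.coe_pow] at h7
        rcases h with h | h | h | h
        · left
          have := key 1 (by simpa using h)
          simpa using this
        · right; left; exact key 2 h
        · right; right; left; exact key 3 h
        · right; right; right; exact key 5 h
      haveI hc3 : CharP F 3 := by
        obtain ⟨p, hp⟩ := CharP.exists F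
        have hpp := CharP.char_is_prime F p
        have h4 : p ∣ 3 := (CharP.cast_eq_zero_iff F p 3).1 (by exact_mod_cast h3)
        have h5 : p = 3 := (Nat.prime_dvd_prime_iff_eq hpp Nat.prime_three).1 h4
        rwa [h5] at hp
      haveI hf3 : Fact (Nat.Prime 3) := ⟨Nat.prime_three⟩
      obtain ⟨s, -, -⟩ := exists_AB (F := F) 3 (by norm_num)
      have hsmall : ∀ {F₀ : Subfield F}, l ∈ F₀ → (F₀ = Fp F 3) → False := by
        intro F₀ hl0 hF₀
        have htop : F₀ = ⊤ := by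
          rw [eq_top_iff, ← hgen, Subfield.closure_le]
          intro x hx
          rw [Set.mem_singleton_iff.1 hx]
          exact hl0
        have hc : Fintype.card F = 3 := by
          have h4 := card_Fp (F := F) 3
          rw [← hF₀, htop] at h4
          rw [← h4, ← Nat.card_eq_fintype_card]
          exact Nat.card_congr (Equiv.subtypeUnivEquiv (fun x => Subfield.mem_top x)).symm
        have h60 : Nat.card (gH l) = 60 := by rw [Nat.card_congr e.toEquiv, card_A5]
        have h4 := Subgroup.card_le_of_le (gH_le_Lp l)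
        rw [h60, card_Lp] at h4
        rw [hc] at hP
        have h9 : 3 * ((3 - 1) * (3 + 1)) = 24 := by norm_num
        rw [h9] at hP
        omega
      rcases lam_of_A5 h2 h3 hl hexp s with h | h | h
      · exact hsmall (by rw [h]; exact (Fp F 3).one_mem) rfl
      · exact hsmall (by rw [h]; exact (Fp F 3).neg_mem (Fp F 3).one_mem) rfl
      · exact hex ⟨card_nine h2 h3 h hgen, h⟩

end Cfsg.Agent.Lib.Classical.SL2.GenUL
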