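import Cfsg.Agent.Lib.Classical.SL2.MinSimple
import Cfsg.Agent.Lib.Coprime.Hall

/-!
Hall `{2,3}`-subgroups of `PSL₂(F)`, `F` of characteristic at least five.
-/

set_option autoImplicit false
set_option linter.unusedSectionVars false
set_option linter.unusedSimpArgs false
set_option linter.style.haveILetI false

open scoped MatrixGroups
open Matrix OnePoint MulAction

namespace Cfsg.Agent.Lib.Classical.SL2.Hall23

open Cfsg.Agent.Lib.Classical.SL2.Moebius Cfsg.Agent.Lib.Classical.SL2.Rational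
open Cfsg.Agent.Lib.Classical.SL2.Klein Cfsg.Agent.Lib.Classical.SL2.SubfieldCase
open Cfsg.Agent.Lib.Classical.SL2.Dickson Cfsg.Agent.Lib.Classical.SL2.Precise
open Cfsg.Agent.Lib.Classical.SL2.Tori Cfsg.Agent.Lib.Classical.SL2.SubLat
open Cfsg.Agent.Lib.Classical.SL2.Coatom Cfsg.Agent.Lib.Classical.SL2.SubMax
open Cfsg.Agent.Lib.Classical.SL2.EvenList Cfsg.Agent.Lib.Classical.SL2.Quat
open Cfsg.Agent.Lib.Classical.SL2.V4Abs Cfsg.Agent.Lib.Classical.SL2.QuatStd
open Cfsg.Agent.Lib.Classical.SL2.Klein4 Cfsg.Agent.Lib.Classical.SL2.A4S4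
open Cfsg.Agent.Lib.Classical.SL2.A5Sub Cfsg.Agent.Lib.Classical.SL2.MaxList
open Cfsg.Agent.Lib.Classical.SL2.MinSimple
open Cfsg.Agent.Lib.Classical

local notation "PGL2" => ProjGenLinGroup (Fin 2)
local notation "PSL2" => ProjectiveSpecialLinearGroup (Fin 2)

section Nums

lemma card_eq_of_primes {c : ℕ} (hc : c ≠ 0) (h : ∀ r : ℕ, r.Prime → r ∣ c → r = 2 ∨ r = 3) :
    c = 2 ^ c.factorization 2 * 3 ^ c.factorization 3 := by
  conv_lhs => rw [← Nat.prod_factorization_pow_eq_self hc]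
  rw [Finsupp.prod_of_support_subset (s := {2, 3}) _ ?_ _ (fun _ _ => pow_zero _),
    Finset.prod_pair (by norm_num)]
  intro r hr
  rw [Nat.support_factorization, Nat.mem_primeFactors] at hr
  rcases h r hr.1 hr.2.1 with h1 | h1 <;> simp [h1]

lemma sq_sub_one_eq {q : ℕ} (hq : 1 ≤ q) : (q - 1) * (q + 1) = q ^ 2 - 1 := by
  obtain ⟨k, rfl⟩ : ∃ k, q = k + 1 := ⟨q - 1, by omega⟩
  simp only [Nat.add_sub_cancel]
  have : (k + 1) ^ 2 = k * (k + 1 + 1) + 1 := by ring
  omega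

lemma dvd_24 {q : ℕ} (hq2 : ¬ 2 ∣ q) (hq3 : ¬ 3 ∣ q) : q ^ 2 % 24 = 1 := by
  have h2 : q % 2 = 1 := by omega
  have h3 : q % 3 ≠ 0 := by omega
  have h1 : q % 24 < 24 := Nat.mod_lt _ (by norm_num)
  have h4 : q ^ 2 % 24 = (q % 24) ^ 2 % 24 := Nat.pow_mod q 2 24
  rw [h4]
  have h5 : q % 2 = (q % 24) % 2 := (Nat.mod_mod_of_dvd q (by norm_num)).symm
  have h6 : q % 3 = (q % 24) % 3 := (Nat.mod_mod_of_dvd q (by norm_num)).symm
  rw [h5] at h2
  rw [h6] at h3
  generalize q % 24 = z at *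
  interval_cases z <;> simp_all

lemma two_mul_eq {q c I : ℕ} (hq2 : ¬ 2 ∣ q) (hq3 : ¬ 3 ∣ q) (hq1 : 1 < q) (hc : c ≠ 0) (hI : I ≠ 0)
    (h : 2 * (c * I) = q * (q ^ 2 - 1)) (hI2 : ¬ 2 ∣ I) (hI3 : ¬ 3 ∣ I)
    (hp : ∀ r : ℕ, r.Prime → r ∣ c → r = 2 ∨ r = 3) :
    2 * c = 2 ^ (q ^ 2 - 1).factorization 2 * 3 ^ (q ^ 2 - 1).factorization 3 := by
  have hq0 : q ≠ 0 := by omega
  have hN : q ^ 2 - 1 ≠ 0 := by
    have : 2 ^ 2 ≤ q ^ 2 := Nat.pow_le_pow_left (by omega) 2
    omega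
  have hf := congrArg Nat.factorization h
  rw [Nat.factorization_mul (by norm_num) (mul_ne_zero hc hI), Nat.factorization_mul hc hI,
    Nat.factorization_mul hq0 hN] at hf
  have h2 := DFunLike.congr_fun hf 2
  have h3 := DFunLike.congr_fun hf 3
  simp only [Finsupp.add_apply, Nat.factorization_eq_zero_of_not_dvd hq2,
    Nat.factorization_eq_zero_of_not_dvd hq3, Nat.factorization_eq_zero_of_not_dvd hI2,
    Nat.factorization_eq_zero_of_not_dvd hI3, Nat.Prime.factorization_self Nat.prime_two,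
    add_zero, zero_add] at h2 h3
  have h4 : (Nat.factorization 2) 3 = 0 :=
    Nat.factorization_eq_zero_of_not_dvd (by norm_num)
  rw [h4, zero_add] at h3
  rw [← h2, ← h3, pow_add, pow_one, mul_assoc, ← card_eq_of_primes hc hp]

lemma index_not_dvd {q c I : ℕ} (hq2 : ¬ 2 ∣ q) (hq3 : ¬ 3 ∣ q) (hq1 : 1 < q)
    (h : 2 * (c * I) = q * (q ^ 2 - 1))
    (hc : 2 * c = 2 ^ (q ^ 2 - 1).factorization 2 * 3 ^ (q ^ 2 - 1).factorization 3) :
    ¬ 2 ∣ I ∧ ¬ 3 ∣ I := by
  have hN : q ^ 2 - 1 ≠ 0 := by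
    have : 2 ^ 2 ≤ q ^ 2 := Nat.pow_le_pow_left (by omega) 2
    omega
  have h1 : (2 * c) * I = q * (q ^ 2 - 1) := by rw [← h]; ring
  rw [hc] at h1
  constructor
  · rintro ⟨J, rfl⟩
    have h5 : 2 ^ ((q ^ 2 - 1).factorization 2 + 1) ∣ q * (q ^ 2 - 1) := by
      rw [← h1]
      exact ⟨3 ^ (q ^ 2 - 1).factorization 3 * J, by ring⟩
    have h6 : Nat.Coprime (2 ^ ((q ^ 2 - 1).factorization 2 + 1)) q :=
      Nat.Coprime.pow_left _ ((Nat.Prime.coprime_iff_not_dvd Nat.prime_two).2 hq2)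
    exact Nat.pow_succ_factorization_not_dvd hN Nat.prime_two (h6.dvd_of_dvd_mul_left h5)
  · rintro ⟨J, rfl⟩
    have h5 : 3 ^ ((q ^ 2 - 1).factorization 3 + 1) ∣ q * (q ^ 2 - 1) := by
      rw [← h1]
      exact ⟨2 ^ (q ^ 2 - 1).factorization 2 * J, by ring⟩
    have h6 : Nat.Coprime (3 ^ ((q ^ 2 - 1).factorization 3 + 1)) q :=
      Nat.Coprime.pow_left _ ((Nat.Prime.coprime_iff_not_dvd Nat.prime_three).2 hq3)
    exact Nat.pow_succ_factorization_not_dvd hN Nat.prime_three (h6.dvd_of_dvd_mul_left h5)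

lemma factors_of_twice {q : ℕ} (hq2 : ¬ 2 ∣ q) (hq3 : ¬ 3 ∣ q) (hq1 : 1 < q) :
    2 ^ 3 ∣ 2 ^ (q ^ 2 - 1).factorization 2 ∧ 3 ∣ 3 ^ (q ^ 2 - 1).factorization 3 := by
  have hN : q ^ 2 - 1 ≠ 0 := by
    have : 2 ^ 2 ≤ q ^ 2 := Nat.pow_le_pow_left (by omega) 2
    omega
  have h24 : 24 ∣ q ^ 2 - 1 := by
    have h1 := dvd_24 hq2 hq3
    have h2 : 1 ≤ q ^ 2 := Nat.one_le_pow _ _ (by omega)
    omega
  constructor
  · apply pow_dvd_pow
    exact (Nat.Prime.pow_dvd_iff_le_factorization Nat.prime_two hN).1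
      ((by norm_num : 2 ^ 3 ∣ 24).trans h24)
  · have h3 : 1 ≤ (q ^ 2 - 1).factorization 3 :=
      (Nat.Prime.pow_dvd_iff_le_factorization Nat.prime_three hN).1
        (by simpa using (by norm_num : 3 ∣ 24).trans h24)
    exact dvd_pow_self 3 (by omega)

end Nums

section Main

variable {F : Type*} [Field F] [Fintype F] [DecidableEq F] {p : ℕ} [hpp : Fact p.Prime] [CharP F p]

lemma q_not_dvd (hp : 5 ≤ p) : ¬ 2 ∣ Fintype.card F ∧ ¬ 3 ∣ Fintype.card F := by
  obtain ⟨n, hn⟩ := FiniteField.card F p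
  rw [hn.2]
  constructor
  · intro h
    have := (Nat.prime_dvd_prime_iff_eq Nat.prime_two hpp.out).1 (Nat.Prime.dvd_of_dvd_pow Nat.prime_two h)
    omega
  · intro h
    have := (Nat.prime_dvd_prime_iff_eq Nat.prime_three hpp.out).1 (Nat.Prime.dvd_of_dvd_pow Nat.prime_three h)
    omega

lemma card_psl' (hp : 5 ≤ p) :
    2 * Nat.card (PSL2 F) = Fintype.card F * (Fintype.card F ^ 2 - 1) := by
  obtain ⟨h2, -⟩ := q_not_dvd (F := F) hp
  have hodd : Odd (Fintype.card F) := by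
    rw [Nat.odd_iff]
    omega
  have hP := card_psl (F := F)
  rw [gcd_odd hodd, sq_sub_one_eq (by have := one_lt_card (F := F); omega)] at hP
  rw [← hP]
  ring

/-- A subgroup with the right order is a Hall subgroup. -/
lemma isPiHall_of_card (hp : 5 ≤ p) (H : Subgroup (PSL2 F))
    (hc : 2 * Nat.card H = 2 ^ (Fintype.card F ^ 2 - 1).factorization 2 *
      3 ^ (Fintype.card F ^ 2 - 1).factorization 3) :
    Cfsg.IsPiHall ({2, 3} : Set ℕ) H := by
  obtain ⟨h2, h3⟩ := q_not_dvd (F := F) hp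
  have hq1 := one_lt_card (F := F)
  constructor
  · intro r hr hd
    have h4 : r ∣ 2 ^ (Fintype.card F ^ 2 - 1).factorization 2 *
        3 ^ (Fintype.card F ^ 2 - 1).factorization 3 := by
      rw [← hc]
      exact hd.trans (dvd_mul_left _ _)
    rcases (Nat.Prime.dvd_mul hr).1 h4 with h5 | h5
    · left
      exact (Nat.prime_dvd_prime_iff_eq hr Nat.prime_two).1 (Nat.Prime.dvd_of_dvd_pow hr h5)
    · right
      exact (Nat.prime_dvd_prime_iff_eq hr Nat.prime_three).1 (Nat.Prime.dvd_of_dvd_pow hr h5)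
  · have h1 : 2 * (Nat.card H * H.index) = Fintype.card F * (Fintype.card F ^ 2 - 1) := by
      rw [Subgroup.card_mul_index, card_psl' hp]
    obtain ⟨h5, h6⟩ := index_not_dvd h2 h3 hq1 h1 hc
    rintro r - (rfl | rfl)
    · exact h5
    · exact h6

/-- The order of a Hall subgroup. -/
lemma card_of_isPiHall (hp : 5 ≤ p) {H : Subgroup (PSL2 F)} (hH : Cfsg.IsPiHall ({2, 3} : Set ℕ) H) :
    2 * Nat.card H = 2 ^ (Fintype.card F ^ 2 - 1).factorization 2 *
      3 ^ (Fintype.card F ^ 2 - 1).factorization 3 := by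
  obtain ⟨h2, h3⟩ := q_not_dvd (F := F) hp
  have hq1 := one_lt_card (F := F)
  have h1 : 2 * (Nat.card H * H.index) = Fintype.card F * (Fintype.card F ^ 2 - 1) := by
    rw [Subgroup.card_mul_index, card_psl' hp]
  have hI : H.index ≠ 0 := Subgroup.index_ne_zero_of_finite
  exact two_mul_eq h2 h3 hq1 Nat.card_pos.ne' hI h1 (hH.2 2 Nat.prime_two (by simp))
    (hH.2 3 Nat.prime_three (by simp)) (fun r hr hd => hH.1 r hr hd)

section Forward

variable {H : Subgroup (PSL2 F)}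

lemma card_map : Nat.card (H.map (tP (F := F))) = Nat.card H :=
  Subgroup.card_map_of_injective tP_injective

lemma map_le_Lp : H.map (tP (F := F)) ≤ Lp F := by
  rintro _ ⟨x, -, rfl⟩
  exact ⟨x, rfl⟩

/-- The subfield case cannot occur. -/
lemma not_dvd_char (hp : 5 ≤ p) (hH : Cfsg.IsPiHall ({2, 3} : Set ℕ) H) : ¬ p ∣ Nat.card H := by
  intro hd
  rcases hH.1 p hpp.out hd with h1 | h1
  · omega
  · simp only [Set.mem_singleton_iff] at h1
    omega

lemma dvd_subfield (F₀ : Subfield F) (h3 : 3 ≤ Nat.card F₀) : p ∣ Nat.card F₀ := by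
  obtain ⟨m, hm, hc⟩ := exists_card_pow F₀
  obtain ⟨n, hn⟩ := FiniteField.card F p
  rw [hn.2] at hc
  have h1 : Nat.card F₀ ∣ p ^ (n : ℕ) := by
    rw [← hc]
    exact dvd_pow_self _ (by omega)
  obtain ⟨k, -, hk⟩ := (Nat.dvd_prime_pow hpp.out).1 h1
  rw [hk]
  apply dvd_pow_self
  rintro rfl
  rw [hk] at h3
  simp at h3

theorem forward (hp : 5 ≤ p) (hH : Cfsg.IsPiHall ({2, 3} : Set ℕ) H) :
    (3 ∣ Fintype.card F - 1 ∧ Fintype.card F % 4 = 1) ∨ (3 ∣ Fintype.card F + 1 ∧ Fintype.card F % 4 = 3) ∨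
      2 ^ (Fintype.card F ^ 2 - 1).factorization 2 * 3 ^ (Fintype.card F ^ 2 - 1).factorization 3 = 24 ∨
      2 ^ (Fintype.card F ^ 2 - 1).factorization 2 * 3 ^ (Fintype.card F ^ 2 - 1).factorization 3 = 48 := by
  classical
  let E := AlgebraicClosure F
  haveI : CharP E p := charP_of_injective_algebraMap (algebraMap F E).injective p
  obtain ⟨h2, h3⟩ := q_not_dvd (F := F) hp
  have hq1 := one_lt_card (F := F)
  have hodd : Odd (Fintype.card F) := by
    rw [Nat.odd_iff]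
    omega
  have hc := card_of_isPiHall hp hH
  obtain ⟨h8, h33⟩ := factors_of_twice h2 h3 hq1
  have h8c : 2 ^ 3 ∣ 2 * Nat.card H := by
    rw [hc]
    exact h8.trans (dvd_mul_right _ _)
  have h3c : 3 ∣ 2 * Nat.card H := by
    rw [hc]
    exact h33.trans (dvd_mul_left _ _)
  have h4H : 4 ∣ Nat.card H := by omega
  have h3H : 3 ∣ Nat.card H := by omega
  set q := Fintype.card F with hq
  have hN : q ^ 2 - 1 ≠ 0 := by
    have : 2 ^ 2 ≤ q ^ 2 := Nat.pow_le_pow_left (by omega) 2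
    omega
  have hU := card_map (H := H)
  have hUL := map_le_Lp (H := H)
  set U := H.map (tP (F := F)) with hUdef
  rcases precise_pgl (E := E) (p := p) U with ⟨ω, h⟩ | ⟨a, b, hab, hpair, h⟩ | ⟨h, hA⟩ | ⟨hp3', ⟨e⟩⟩ |
    ⟨C, F₀, h3', hUU⟩
  · -- Borel
    exfalso
    have hle : U ≤ Bp ω ⊓ Lp F := le_inf (fun x hx => ιp_injective E (by
      have := h x hx
      rwa [toE_smul_ιp] at this)) hUL
    have hB := card_Bp_inf_Lp ω
    rw [gcd_odd hodd] at hB
    obtain ⟨k, hk⟩ := Subgroup.card_dvd_of_le hle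
    rw [hk, hU] at hB
    have h5 : 2 * Nat.card H ∣ q * (q - 1) := ⟨k, by rw [← hB]; ring⟩
    rw [hc] at h5
    have h6 : 2 ^ (q ^ 2 - 1).factorization 2 ∣ q * (q - 1) :=
      (dvd_mul_right _ _).trans h5
    have h7 : Nat.Coprime (2 ^ (q ^ 2 - 1).factorization 2) q :=
      Nat.Coprime.pow_left _ ((Nat.Prime.coprime_iff_not_dvd Nat.prime_two).2 h2)
    have h9 := h7.dvd_of_dvd_mul_left h6
    have h10 : 2 ^ ((q ^ 2 - 1).factorization 2 + 1) ∣ q ^ 2 - 1 := by
      have h11 : 2 ^ (q ^ 2 - 1).factorization 2 * 2 ∣ (q - 1) * (q + 1) :=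
        mul_dvd_mul h9 (by omega)
      rwa [sq_sub_one_eq (by omega), ← pow_succ] at h11
    exact Nat.pow_succ_factorization_not_dvd hN Nat.prime_two h10
  · -- tori
    have hle : U ≤ Dp a b ⊓ Lp F := le_inf (fun x hx => h x hx) hUL
    have hD := card_Dp_inf_Lp hpair
    rw [gcd_odd hodd] at hD
    have hdv := Subgroup.card_dvd_of_le hle
    rw [hD, hU] at hdv
    rcases hpair with h5 | h5
    · rw [card_Tp_split h5, ← hq] at hdv
      have h6 : 2 * ((q - 1) / 2) = q - 1 := by omega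
      rw [h6] at hdv
      left
      have h7 := h4H.trans hdv
      exact ⟨h3H.trans hdv, by omega⟩
    · rw [card_Tp_nonsplit h5, ← hq] at hdv
      have h6 : 2 * ((q + 1) / 2) = q + 1 := by omega
      rw [h6] at hdv
      right; left
      have h7 := h4H.trans hdv
      exact ⟨h3H.trans hdv, by omega⟩
  · -- the three small groups
    rcases hA with ⟨⟨e⟩⟩ | ⟨⟨e⟩⟩ | ⟨⟨e⟩⟩
    · right; right; left
      have h5 : Nat.card U = 12 := by rw [Nat.card_congr e.toEquiv, card_A4]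
      rw [← hc, ← hU, h5]
    · right; right; right
      have h5 : Nat.card U = 24 := by rw [Nat.card_congr e.toEquiv, card_S4]
      rw [← hc, ← hU, h5]
    · exfalso
      have h5 : Nat.card U = 60 := by rw [Nat.card_congr e.toEquiv, card_A5]
      have h6 : 5 ∣ Nat.card H := by
        rw [← hU, h5]
        norm_num
      rcases hH.1 5 (by norm_num) h6 with h7 | h7
      · simp at h7
      · simp at h7
  · omega
  · exfalso
    have hd₀ := dvd_subfield (p := p) F₀ h3'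
    apply not_dvd_char hp hH
    rw [← hU]
    rcases hUU with hUU | hUU
    · rw [hUU, card_map_conj, card_φ₀]
      exact hd₀.trans (dvd_mul_right _ _)
    · rw [hUU, card_map_conj]
      have h5 := card_φ₁ F₀
      have h6 : p ∣ Nat.card (φ₁ F₀).range * Nat.gcd 2 (Nat.card F₀ - 1) := by
        rw [h5]
        exact hd₀.trans (dvd_mul_right _ _)
      rcases (Nat.Prime.dvd_mul hpp.out).1 h6 with h7 | h7
      · exact h7
      · have h8 : p ∣ 2 := h7.trans (Nat.gcd_dvd_left _ _)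
        have := Nat.le_of_dvd (by norm_num) h8
        omega

end Forward

section Backward

lemma exists_of_small (hp : 5 ≤ p)
    (h : 2 ^ (Fintype.card F ^ 2 - 1).factorization 2 * 3 ^ (Fintype.card F ^ 2 - 1).factorization 3 = 24) :
    ∃ H : Subgroup (PSL2 F), Cfsg.IsPiHall ({2, 3} : Set ℕ) H := by
  obtain ⟨n, hn⟩ := FiniteField.card F p
  obtain ⟨H, ⟨e⟩⟩ := (exists_A4_iff (F := F) p n hn.2).2 (by
    rintro ⟨h1, -⟩
    omega)
  refine ⟨H, isPiHall_of_card hp H ?_⟩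
  rw [h, Nat.card_congr e.toEquiv, card_A4]

lemma exists_of_small' (hp : 5 ≤ p)
    (h : 2 ^ (Fintype.card F ^ 2 - 1).factorization 2 * 3 ^ (Fintype.card F ^ 2 - 1).factorization 3 = 48) :
    ∃ H : Subgroup (PSL2 F), Cfsg.IsPiHall ({2, 3} : Set ℕ) H := by
  have hq1 := one_lt_card (F := F)
  have hN : Fintype.card F ^ 2 - 1 ≠ 0 := by
    have : 2 ^ 2 ≤ Fintype.card F ^ 2 := Nat.pow_le_pow_left (by omega) 2
    omega
  have h48 : 48 ∣ Fintype.card F ^ 2 - 1 := by
    rw [← h]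
    have h1 : Nat.Coprime (2 ^ (Fintype.card F ^ 2 - 1).factorization 2)
        (3 ^ (Fintype.card F ^ 2 - 1).factorization 3) :=
      Nat.Coprime.pow _ _ (by norm_num)
    exact h1.mul_dvd_of_dvd_of_dvd (Nat.ordProj_dvd _ _) (Nat.ordProj_dvd _ _)
  have h16 : Fintype.card F ^ 2 % 16 = 1 := by
    have h2 : 1 ≤ Fintype.card F ^ 2 := Nat.one_le_pow _ _ (by omega)
    omega
  obtain ⟨H, ⟨e⟩⟩ := exists_S4_iff.2 h16
  refine ⟨H, isPiHall_of_card hp H ?_⟩
  rw [h, Nat.card_congr e.toEquiv, card_S4]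

/-- The Hall subgroup of the normaliser of a torus. -/
lemma exists_of_torus (hp : 5 ≤ p) {E : Type*} [Field E] [Algebra F E] [IsAlgClosed E]
    [DecidableEq E] {a b : OnePoint E}
    (hpair : SplitPair F a b ∨ NonsplitPair F a b) (δ : ℕ)
    (hT : Nat.card (Tp (F := F) a b) = δ) (hev : 2 ∣ δ) 
    (r : ℕ) (hr : δ * r = Fintype.card F ^ 2 - 1) (hr2 : ¬ 4 ∣ r) (hr3 : ¬ 3 ∣ r) :
    ∃ H : Subgroup (PSL2 F), Cfsg.IsPiHall ({2, 3} : Set ℕ) H := by
  classical
  obtain ⟨h2, h3⟩ := q_not_dvd (F := F) hp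
  have hq1 := one_lt_card (F := F)
  have hodd : Odd (Fintype.card F) := by
    rw [Nat.odd_iff]
    omega
  set q := Fintype.card F with hq
  let W : Subgroup (PGL2 F) := Dp a b ⊓ Lp F
  have hW : W ≤ Lp F := inf_le_right
  let D : Subgroup (PSL2 F) := W.comap (tP (F := F))
  have hD : Nat.card D = δ := by
    have h4 : Nat.card D = Nat.card W := card_comap' hW
    rw [h4]
    have h5 := card_Dp_inf_Lp hpair
    rw [gcd_odd hodd, hT] at h5
    rw [h5]
    obtain ⟨c, rfl⟩ := hev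
    simp
  obtain ⟨e⟩ := iso_Dp_inf_Lp hpair
  haveI hsol : Group.IsSolvable D := by
    haveI := isSolvable_dihedral (Nat.card (Tp (F := F) a b) / Nat.gcd 2 (Fintype.card F - 1))
    exact Group.isSolvable_of_surjective (f := ((comapEquiv' hW).trans e).symm.toMonoidHom)
      ((comapEquiv' hW).trans e).symm.surjective
  obtain ⟨H, hHD, hH1, hH2⟩ := Cfsg.Agent.Lib.Coprime.Hall.exists_isPiHallOf ({2, 3} : Set ℕ) D
  refine ⟨H, hH1, ?_⟩
  -- the index of `D`
  have h1 : 2 * (δ * D.index) = q * (δ * r) := by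
    rw [hr, ← hD, Subgroup.card_mul_index, card_psl' hp]
  have hδ0 : δ ≠ 0 := by
    rw [← hD]
    exact Nat.card_pos.ne'
  have h4 : 2 * D.index = q * r := by
    apply Nat.eq_of_mul_eq_mul_left (Nat.pos_of_ne_zero hδ0)
    linarith
  have hidx : H.index = H.relIndex D * D.index := (Subgroup.relIndex_mul_index hHD).symm
  intro ℓ hℓ hℓπ hd
  rw [hidx] at hd
  rcases (Nat.Prime.dvd_mul hℓ).1 hd with h5 | h5
  · exact hH2 ℓ hℓ hℓπ h5
  · rcases hℓπ with rfl | h6
    · -- `4 ∣ q r`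
      have h7 : 4 ∣ q * r := by
        rw [← h4]
        obtain ⟨c, hc⟩ := h5
        exact ⟨c, by rw [hc]; ring⟩
      have h8 : Nat.Coprime 4 q := by
        have : Nat.Coprime (2 ^ 2) q :=
          Nat.Coprime.pow_left _ ((Nat.Prime.coprime_iff_not_dvd Nat.prime_two).2 h2)
        simpa using this
      exact hr2 (h8.dvd_of_dvd_mul_left h7)
    · simp only [Set.mem_singleton_iff] at h6
      subst h6
      have h7 : 3 ∣ q * r := by
        rw [← h4]
        exact h5.trans (dvd_mul_left _ _)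
      rcases (Nat.Prime.dvd_mul Nat.prime_three).1 h7 with h8 | h8
      · exact h3 h8
      · exact hr3 h8

theorem backward (hp : 5 ≤ p) (h :
    (3 ∣ Fintype.card F - 1 ∧ Fintype.card F % 4 = 1) ∨ (3 ∣ Fintype.card F + 1 ∧ Fintype.card F % 4 = 3) ∨
      2 ^ (Fintype.card F ^ 2 - 1).factorization 2 * 3 ^ (Fintype.card F ^ 2 - 1).factorization 3 = 24 ∨
      2 ^ (Fintype.card F ^ 2 - 1).factorization 2 * 3 ^ (Fintype.card F ^ 2 - 1).factorization 3 = 48) :
    ∃ H : Subgroup (PSL2 F), Cfsg.IsPiHall ({2, 3} : Set ℕ) H := by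
  classical
  obtain ⟨h2, h3⟩ := q_not_dvd (F := F) hp
  have hq1 := one_lt_card (F := F)
  rcases h with ⟨h5, h6⟩ | ⟨h5, h6⟩ | h5 | h5
  · -- split torus
    let E := AlgebraicClosure F
    have hne : ((∞ : OnePoint F)) ≠ ((0 : F) : OnePoint F) := OnePoint.infty_ne_coe _
    have hs : SplitPair F (ιp E ∞) (ιp E ((0 : F) : OnePoint F)) := ⟨_, _, hne, rfl, rfl⟩
    exact exists_of_torus hp (Or.inl hs) (Fintype.card F - 1) (card_Tp_split hs) (by omega)
      (Fintype.card F + 1) (sq_sub_one_eq (by omega)) (by omega) (by omega)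
  · -- non-split torus
    let E := AlgebraicClosure F
    obtain ⟨z, h7, h8⟩ := exists_nonsplit (F := F) E
    have hs : NonsplitPair F ((z : E) : OnePoint E) ((z ^ Fintype.card F : E) : OnePoint E) :=
      ⟨z, rfl, rfl, h7, h8⟩
    exact exists_of_torus hp (Or.inr hs) (Fintype.card F + 1) (card_Tp_nonsplit hs) (by omega)
      (Fintype.card F - 1) (by rw [mul_comm]; exact sq_sub_one_eq (by omega)) (by omega) (by omega)
  · exact exists_of_small hp h5
  · exact exists_of_small' hp h5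

end Backward

end Main

end Cfsg.Agent.Lib.Classical.SL2.Hall23
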