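import Cfsg.Agent.Lib.Classical.SL2.Coatom

/-!
The minimal index of a proper subgroup of `PSL₂(F)` (Galois).
-/

set_option autoImplicit false
set_option linter.unusedSectionVars false
set_option linter.style.haveILetI false

open scoped MatrixGroups
open Matrix OnePoint MulAction

namespace Cfsg.Agent.Lib.Classical.SL2.MinIndex

open Cfsg.Agent.Lib.Classical.SL2.Moebius Cfsg.Agent.Lib.Classical.SL2.Rational
open Cfsg.Agent.Lib.Classical.SL2.Klein Cfsg.Agent.Lib.Classical.SL2.SubfieldCase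
open Cfsg.Agent.Lib.Classical.SL2.Dickson Cfsg.Agent.Lib.Classical.SL2.Precise
open Cfsg.Agent.Lib.Classical.SL2.Tori Cfsg.Agent.Lib.Classical.SL2.SubLat
open Cfsg.Agent.Lib.Classical.SL2.Coatom
open Cfsg.Agent.Lib.Classical

local notation "PGL2" => ProjGenLinGroup (Fin 2)
local notation "PSL2" => ProjectiveSpecialLinearGroup (Fin 2)

lemma num_abstract {q u P : ℕ} (hq1 : 3 < q) (hq : q ≠ 5 ∧ q ≠ 7 ∧ q ≠ 9 ∧ q ≠ 11)
    (hu : u = 12 ∨ u = 24 ∨ u = 60)
    (hc : P * Nat.gcd 2 (q - 1) = q * ((q - 1) * (q + 1))) (hdvd : u ∣ P) (hne : u ≠ P) :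
    u * Nat.gcd 2 (q - 1) ≤ q * (q - 1) := by
  have hd : Nat.gcd 2 (q - 1) ≤ 2 := Nat.le_of_dvd (by norm_num) (Nat.gcd_dvd_left _ _)
  have hu60 : u ≤ 60 := by omega
  by_cases h13 : 13 ≤ q
  · obtain ⟨r, rfl⟩ : ∃ r, q = r + 13 := ⟨q - 13, by omega⟩
    rw [show r + 13 - 1 = r + 12 by omega]
    rw [show r + 13 - 1 = r + 12 by omega] at hd
    nlinarith
  · have hcases : q = 4 ∨ q = 6 ∨ q = 8 ∨ q = 10 ∨ q = 12 := by omega
    rcases hcases with rfl | rfl | rfl | rfl | rfl <;> norm_num at hc ⊢ <;> subst hc <;>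
      rcases hu with rfl | rfl | rfl <;> first | omega | (exfalso; revert hdvd; decide)

section

variable {F : Type*} [Field F] [Fintype F] [DecidableEq F]

/-- The order of a proper subgroup of `PSL₂(F)`. -/
theorem card_mul_le (hq : Fintype.card F ∉ ({2, 3, 5, 7, 9, 11} : Finset ℕ))
    (H : Subgroup (PSL2 F)) (hH : H ≠ ⊤) :
    Nat.card H * Nat.gcd 2 (Fintype.card F - 1) ≤ Fintype.card F * (Fintype.card F - 1) := by
  classical
  have hq' : Fintype.card F ≠ 2 ∧ Fintype.card F ≠ 3 ∧ Fintype.card F ≠ 5 ∧ Fintype.card F ≠ 7 ∧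
      Fintype.card F ≠ 9 ∧ Fintype.card F ≠ 11 := by
    simpa [Finset.mem_insert, Finset.mem_singleton] using hq
  have hq1 := one_lt_card (F := F)
  have hq3 : 3 < Fintype.card F := by omega
  have hc := card_psl (F := F)
  let E := AlgebraicClosure F
  obtain ⟨p, hp⟩ := CharP.exists F
  haveI hpp : Fact p.Prime := ⟨CharP.char_is_prime F p⟩
  haveI : CharP E p := charP_of_injective_algebraMap (algebraMap F E).injective p
  set U := H.map (tP (F := F)) with hU
  have hcU : Nat.card U = Nat.card H := Nat.card_congr (mapEquiv H).toEquiv.symm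
  have hUL : U ≤ Lp F := by
    rintro _ ⟨x, -, rfl⟩
    exact ⟨x, rfl⟩
  have hUne : U ≠ Lp F := by
    intro h
    apply hH
    rw [eq_top_iff]
    intro x _
    have h4 : tP x ∈ U := by
      rw [h]
      exact ⟨x, rfl⟩
    obtain ⟨y, hy, hyx⟩ := h4
    rw [← tP_injective hyx]
    exact hy
  have hdvd : Nat.card U ∣ Nat.card (PSL2 F) := by
    have := Subgroup.card_dvd_of_le hUL
    rwa [card_Lp] at this
  have hneP : Nat.card U ≠ Nat.card (PSL2 F) := by
    intro h
    apply hUne
    exact Subgroup.eq_of_le_of_card_ge hUL (by rw [h, card_Lp])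
  rw [← hcU]
  have habstract : ∀ {A : Type} [Group A], Nonempty (U ≃* A) →
      (Nat.card A = 12 ∨ Nat.card A = 24 ∨ Nat.card A = 60) →
      Nat.card U * Nat.gcd 2 (Fintype.card F - 1) ≤ Fintype.card F * (Fintype.card F - 1) := by
    rintro A _ ⟨e⟩ hA
    have h1 : Nat.card U = Nat.card A := Nat.card_congr e.toEquiv
    rw [← h1] at hA
    exact num_abstract hq3 ⟨hq'.2.2.1, hq'.2.2.2.1, hq'.2.2.2.2.1, hq'.2.2.2.2.2⟩ hA hc hdvd hneP
  rcases precise_pgl (E := E) (p := p) U with ⟨ω, hω⟩ | ⟨a, b, -, hpair, hU'⟩ | ⟨-, h3⟩ | ⟨-, h3⟩ |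
    ⟨C, F₀, hF₀, hU'⟩
  · have hle : U ≤ Bp ω ⊓ Lp F := by
      intro x hx
      refine ⟨?_, hUL hx⟩
      have := hω x hx
      rw [toE_smul_ιp] at this
      exact ιp_injective E this
    have h1 := Nat.card_le_card_of_injective _ (Subgroup.inclusion_injective hle)
    calc _ ≤ Nat.card (Bp ω ⊓ Lp F : Subgroup (PGL2 F)) * Nat.gcd 2 (Fintype.card F - 1) :=
          Nat.mul_le_mul_right _ h1
      _ = _ := card_Bp_inf_Lp ω
  · have hle : U ≤ Dp a b ⊓ Lp F := fun x hx => ⟨hU' x hx, hUL hx⟩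
    have h1 := Nat.card_le_card_of_injective _ (Subgroup.inclusion_injective hle)
    have h2 := card_Dp_inf_Lp hpair
    have h3 := card_Tp_inf_Lp hpair
    have h4 : Nat.card (Tp (F := F) a b) ≤ Fintype.card F + 1 := by
      rcases hpair with h5 | h5
      · rw [card_Tp_split h5]
        omega
      · rw [card_Tp_nonsplit h5]
    have h5 : Nat.card (Dp (F := F) a b ⊓ Lp F : Subgroup (PGL2 F)) *
        Nat.gcd 2 (Fintype.card F - 1) = 2 * Nat.card (Tp (F := F) a b) := by
      rw [h2, ← h3, Nat.mul_div_cancel _ gcd_pos']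
      ring
    calc _ ≤ Nat.card (Dp (F := F) a b ⊓ Lp F : Subgroup (PGL2 F)) *
          Nat.gcd 2 (Fintype.card F - 1) := Nat.mul_le_mul_right _ h1
      _ = 2 * Nat.card (Tp (F := F) a b) := h5
      _ ≤ 2 * (Fintype.card F + 1) := by omega
      _ ≤ _ := by
        obtain ⟨r, hr⟩ : ∃ r, Fintype.card F = r + 4 := ⟨Fintype.card F - 4, by omega⟩
        rw [hr, show r + 4 - 1 = r + 3 by omega]
        nlinarith
  · rcases h3 with h3 | h3 | h3
    · exact habstract h3 (Or.inl card_A4)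
    · exact habstract h3 (Or.inr (Or.inl card_S4))
    · exact habstract h3 (Or.inr (Or.inr card_A5))
  · exact habstract h3 (Or.inr (Or.inr card_A5))
  · obtain ⟨m, hm, hqm⟩ := exists_card_pow F₀
    have hU₀ : U ≤ ((φ₀ F₀).range).map (MulAut.conj C).toMonoidHom := by
      rcases hU' with h1 | h1
      · exact h1.le
      · rw [h1]
        exact Subgroup.map_mono (φ₁_le_φ₀ F₀)
    have h1 := Nat.card_le_card_of_injective _ (Subgroup.inclusion_injective hU₀)
    rw [card_map_conj, card_φ₀] at h1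
    by_cases hF : Nat.card F₀ = Fintype.card F
    · exfalso
      have htop := eq_top_of_card hF
      subst htop
      rcases hU' with hU' | hU'
      · rw [φ₀_top, Subgroup.map_top_of_surjective _ (MulAut.conj C).surjective] at hU'
        apply hUne
        apply le_antisymm hUL
        rw [hU']
        exact le_top
      · rw [φ₁_top] at hU'
        apply hUne
        rw [hU']
        apply Subgroup.eq_of_le_of_card_ge ((map_conj_le_Lp_iff _ _).2 le_rfl)
        rw [card_map_conj]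
    · have hm2 : 2 ≤ m := by
        by_contra hlt
        have : m = 1 := by omega
        rw [this, pow_one] at hqm
        exact hF hqm
      set q₀ := Nat.card F₀ with hq₀
      set q := Fintype.card F with hqdef
      have h2 : q₀ ^ 2 ≤ q := by
        rw [← hqm]
        exact Nat.pow_le_pow_right (by omega) hm2
      have hd : Nat.gcd 2 (q - 1) ≤ 2 := Nat.le_of_dvd (by norm_num) (Nat.gcd_dvd_left _ _)
      obtain ⟨r, hr⟩ : ∃ r, q₀ = r + 3 := ⟨q₀ - 3, by omega⟩
      have h3 : q₀ * ((q₀ - 1) * (q₀ + 1)) * 2 ≤ q₀ ^ 2 * (q₀ ^ 2 - 1) := by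
        rw [hr, show r + 3 - 1 = r + 2 by omega, show (r + 3) ^ 2 - 1 = (r + 2) * (r + 4) by
          rw [Nat.sub_eq_iff_eq_add (by nlinarith)]; ring]
        nlinarith [Nat.zero_le r, Nat.zero_le (r * r), Nat.zero_le (r * r * r)]
      have h4 : q₀ ^ 2 * (q₀ ^ 2 - 1) ≤ q * (q - 1) := Nat.mul_le_mul h2 (by omega)
      calc _ ≤ (q₀ * ((q₀ - 1) * (q₀ + 1))) * 2 := Nat.mul_le_mul h1 hd
        _ ≤ _ := h3.trans h4

/-- The index of a proper subgroup. -/
theorem le_index (hq : Fintype.card F ∉ ({2, 3, 5, 7, 9, 11} : Finset ℕ))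
    (H : Subgroup (PSL2 F)) (hH : H ≠ ⊤) : Fintype.card F + 1 ≤ H.index := by
  have h1 := card_mul_le hq H hH
  have h2 := H.card_mul_index
  have h3 := card_psl (F := F)
  rw [← h2] at h3
  have hq1 := one_lt_card (F := F)
  by_contra hlt
  have hlt' : H.index ≤ Fintype.card F := by omega
  have hpos : 0 < Fintype.card F * (Fintype.card F - 1) := Nat.mul_pos (by omega) (by omega)
  have h4 : Nat.card H * H.index * Nat.gcd 2 (Fintype.card F - 1) =
      (Nat.card H * Nat.gcd 2 (Fintype.card F - 1)) * H.index := by ring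
  rw [h4] at h3
  have h5 : (Nat.card H * Nat.gcd 2 (Fintype.card F - 1)) * H.index ≤
      (Fintype.card F * (Fintype.card F - 1)) * Fintype.card F := Nat.mul_le_mul h1 hlt'
  have h6 : Fintype.card F * ((Fintype.card F - 1) * (Fintype.card F + 1)) =
      (Fintype.card F * (Fintype.card F - 1)) * (Fintype.card F + 1) := by ring
  rw [h3, h6] at h5
  have := Nat.le_of_mul_le_mul_left h5 hpos
  omega

/-- The stabiliser of a point has index `q + 1`. -/
theorem index_borel (ω : OnePoint F) :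
    ((Bp ω).comap (tP (F := F))).index = Fintype.card F + 1 := by
  have h1 := ((Bp ω).comap (tP (F := F))).card_mul_index
  rw [card_comap_eq] at h1
  have h2 := card_Bp_inf_Lp ω
  have h3 := card_psl (F := F)
  rw [← h1] at h3
  have hq1 := one_lt_card (F := F)
  have hpos : 0 < Fintype.card F * (Fintype.card F - 1) := Nat.mul_pos (by omega) (by omega)
  have h4 : Nat.card (Bp ω ⊓ Lp F : Subgroup (PGL2 F)) *
      ((Bp ω).comap (tP (F := F))).index * Nat.gcd 2 (Fintype.card F - 1) =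
      (Nat.card (Bp ω ⊓ Lp F : Subgroup (PGL2 F)) * Nat.gcd 2 (Fintype.card F - 1)) *
        ((Bp ω).comap (tP (F := F))).index := by ring
  rw [h4, h2] at h3
  have h6 : Fintype.card F * ((Fintype.card F - 1) * (Fintype.card F + 1)) =
      (Fintype.card F * (Fintype.card F - 1)) * (Fintype.card F + 1) := by ring
  rw [h6] at h3
  exact Nat.eq_of_mul_eq_mul_left hpos h3

end

end Cfsg.Agent.Lib.Classical.SL2.MinIndex
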